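import Mathlib
import Cfsg.Agent.Lib.RepCritical.Irreducible
import Cfsg.Agent.Lib.Generators.RegularUnipotent

/-!
The critical case behind the Hall–Higman theorem: a `p`-element acting without fixed points on a
`q`-group modulo the centre, in a representation irreducible on the `q`-group.  Every endomorphism
commuting with the `p`-element is a scalar plus a trace over the cyclic group it generates.
-/

set_option autoImplicit false
set_option linter.style.haveILetI false

open Module Polynomial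

namespace CfsgLib.RepCritical

variable {G : Type*} [Group G] {K : Type*} [Field K] {V : Type*} [AddCommGroup V] [Module K V]

/-- The trace over a cyclic group of operators. -/
noncomputable def orbTrace (X Y : End K V) (N : ℕ) (h : End K V) : End K V :=
  ∑ i ∈ Finset.range N, X ^ i * h * Y ^ i

variable [IsAlgClosed K] [FiniteDimensional K V]

/-- Fixed endomorphisms are scalars plus traces. -/
theorem exists_scalar_add_orbTrace [Finite G] (ρ : Representation K G V) {q : ℕ} [Fact q.Prime]
    (hqK : (q : K) ≠ 0) {Q : Subgroup G} [hQn : Q.Normal] (hQ : IsPGroup q Q) (hirr : IrrOn ρ Q ⊤)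
    {x : G} (hfree : ∀ g ∈ Q, g ∉ Subgroup.center G → ∀ y ∈ Subgroup.zpowers x,
      y * g * y⁻¹ = g → y = 1)
    {f : End K V} (hf : ρ x * f = f * ρ x) :
    ∃ (c : K) (h : End K V), f = c • 1 + orbTrace (ρ x) (ρ x⁻¹) (orderOf x) h := by
  classical
  haveI : Fintype Q := Fintype.ofFinite Q
  let tr := LinearMap.trace K V
  let s : End K V → End K V := fun f => ∑ g : Q, tr (f * ρ (g : G)⁻¹) • ρ (g : G)
  have hsadd : ∀ (u v : End K V), s (u + v) = s u + s v := fun u v => by
    simp only [s, add_mul, map_add, add_smul, Finset.sum_add_distrib]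
  have hssmul : ∀ (r : K) (u : End K V), s (r • u) = r • s u := fun r u => by
    simp only [s, Algebra.smul_mul_assoc, map_smul, smul_eq_mul, Finset.smul_sum, smul_smul]
  have hleft : ∀ (k : Q) (u : End K V), s (ρ (k : G) * u) = ρ (k : G) * s u := by
    intro k u
    simp only [s, Finset.mul_sum, mul_smul_comm]
    rw [← Equiv.sum_comp (Equiv.mulLeft k)]
    refine Finset.sum_congr rfl fun g _ => ?_
    simp only [Equiv.coe_mulLeft, Subgroup.coe_mul, mul_inv_rev, map_mul]
    congr 1
    show LinearMap.trace K V _ = LinearMap.trace K V _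
    rw [← mul_assoc, LinearMap.trace_mul_comm, ← mul_assoc, ← mul_assoc, ← map_mul ρ, inv_mul_cancel,
      map_one, one_mul]
  -- `s` is a scalar on the whole endomorphism algebra
  have hall : ∀ u v : End K V, s (v * u) = v * s u := by
    intro u v
    have hv : v ∈ Submodule.span K ((fun g => ρ g) '' (Q : Set G)) := by
      rw [span_eq_top ρ hirr]; exact Submodule.mem_top
    induction hv using Submodule.span_induction with
    | mem a ha => obtain ⟨g, hg, rfl⟩ := ha; exact hleft ⟨g, hg⟩ u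
    | zero =>
      rw [zero_mul, zero_mul]
      simpa using hssmul 0 0
    | add a b _ _ ha hb => rw [add_mul, add_mul, hsadd, ha, hb]
    | smul r a _ ha => rw [Algebra.smul_mul_assoc, Algebra.smul_mul_assoc, hssmul, ha]
  have hs1 : ∀ g ∈ Q, s 1 * ρ g = ρ g * s 1 := by
    intro g hg
    simp only [s, Finset.mul_sum, Finset.sum_mul, mul_smul_comm, smul_mul_assoc]
    rw [← Equiv.sum_comp (MulAut.conj (⟨g, hg⟩ : Q)).toEquiv]
    refine Finset.sum_congr rfl fun k _ => ?_
    simp only [MulEquiv.toEquiv_eq_coe, MulEquiv.coe_toEquiv, MulAut.conj_apply, Subgroup.coe_mul,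
      Subgroup.coe_inv, one_mul]
    rw [show ρ (g * (k : G) * g⁻¹) * ρ g = ρ g * ρ (k : G) by
      rw [← map_mul, ← map_mul]; congr 1; group]
    congr 1
    show LinearMap.trace K V _ = LinearMap.trace K V _
    rw [show (g * (k : G) * g⁻¹)⁻¹ = g * ((k : G)⁻¹ * g⁻¹) by group, map_mul ρ g,
      LinearMap.trace_mul_comm, ← map_mul ρ, inv_mul_cancel_right]
  obtain ⟨c, hc⟩ := exists_scalar ρ hirr (s 1) hs1
  have hsc : ∀ u, s u = c • u := fun u => by
    rw [← mul_one u, hall, hc, mul_smul_comm]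
  -- the scalar is not zero
  have hc0 : c ≠ 0 := by
    intro h0
    let a : Q → K := fun g => tr (ρ (g : G)⁻¹)
    let L : End K (Q → K) := ∑ g : Q, a g • LinearMap.funLeft K K (fun h => g⁻¹ * h)
    have hL : ∀ (u : Q → K) (h : Q), L u h = ∑ g : Q, a g * u (g⁻¹ * h) := fun u h => by
      simp only [L, LinearMap.sum_apply, LinearMap.smul_apply, Finset.sum_apply, Pi.smul_apply,
        LinearMap.funLeft_apply, smul_eq_mul]
    have hkey : ∀ k : Q, ∑ g : Q, a g * a (g⁻¹ * k) = 0 := by
      intro k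
      have h1 : tr (ρ (k : G)⁻¹ * s 1) = 0 := by rw [hsc, h0, zero_smul, mul_zero, map_zero]
      simp only [s, Finset.mul_sum, mul_smul_comm, one_mul, map_sum, map_smul, smul_eq_mul] at h1
      rw [← h1]
      refine Finset.sum_congr rfl fun g _ => ?_
      simp only [a, Subgroup.coe_mul, Subgroup.coe_inv, mul_inv_rev, inv_inv, map_mul, tr]
    have hnil : IsNilpotent L := by
      refine ⟨2, ?_⟩
      refine LinearMap.ext fun u => funext fun h => ?_
      rw [pow_two, Module.End.mul_apply, hL]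
      simp only [hL, Finset.mul_sum]
      have e1 : ∀ g : Q, ∑ g' : Q, a g * (a g' * u (g'⁻¹ * (g⁻¹ * h))) =
          ∑ k : Q, a g * a (g⁻¹ * k) * u (k⁻¹ * h) := fun g => by
        rw [← Equiv.sum_comp (Equiv.mulLeft g⁻¹)]
        exact Finset.sum_congr rfl fun k _ => by simp [mul_assoc]
      rw [Finset.sum_congr rfl fun g _ => e1 g, Finset.sum_comm]
      simp only [← Finset.sum_mul, hkey, zero_mul, Finset.sum_const_zero]
      rfl
    have htr : LinearMap.trace K (Q → K) L = (Nat.card Q : K) * a 1 := by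
      rw [LinearMap.trace_eq_matrix_trace K (Pi.basisFun K Q), Matrix.trace]
      simp only [Matrix.diag, LinearMap.toMatrix_apply, Pi.basisFun_apply, Pi.basisFun_repr, hL]
      rw [Finset.sum_congr rfl (g := fun _ => a 1) fun h _ => ?_, Finset.sum_const, nsmul_eq_mul,
        Finset.card_univ, Nat.card_eq_fintype_card]
      rw [Finset.sum_eq_single 1]
      · simp
      · intro g _ hg
        rw [Pi.single_eq_of_ne, mul_zero]
        intro h'
        exact hg (inv_eq_one.1 (mul_eq_right.1 h'))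
      · simp
    have hz := (LinearMap.isNilpotent_trace_of_isNilpotent hnil).eq_zero
    rw [htr] at hz
    obtain ⟨j, hj⟩ := IsPGroup.iff_card.1 hQ
    obtain ⟨b, hb⟩ := exists_finrank_eq_pow ρ (Nat.card Q) Q le_rfl hQ ⊤ hirr
    rw [finrank_top] at hb
    have ha1 : a 1 = (q : K) ^ b := by
      simp only [a, tr, Subgroup.coe_one, inv_one, map_one, LinearMap.trace_one, hb, Nat.cast_pow]
    rw [hj, ha1, Nat.cast_pow, ← pow_add] at hz
    exact hqK (pow_eq_zero_iff'.1 hz).1
  -- split the sum along the orbits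
  let w : G → K := fun g => c⁻¹ * tr (f * ρ g⁻¹)
  have hfsum : f = ∑ g : Q, w (g : G) • ρ (g : G) := by
    calc f = c⁻¹ • s f := by rw [hsc, smul_smul, inv_mul_cancel₀ hc0, one_smul]
      _ = _ := by simp only [s, w, Finset.smul_sum, smul_smul]
  have hfi : ∀ i : ℕ, Commute f (ρ (x ^ i)) := fun i => by
    rw [map_pow]; exact (show Commute f (ρ x) from hf.symm).pow_right i
  have hw : ∀ (g : G) (i : ℕ), w (x ^ i * g * (x ^ i)⁻¹) = w g := by
    intro g i
    simp only [w, tr]
    congr 1
    rw [show (x ^ i * g * (x ^ i)⁻¹)⁻¹ = x ^ i * (g⁻¹ * (x ^ i)⁻¹) by group, map_mul ρ,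
      ← mul_assoc, (hfi i).eq, mul_assoc, LinearMap.trace_mul_comm, map_mul ρ, mul_assoc, mul_assoc,
      ← map_mul ρ, inv_mul_cancel, map_one ρ, mul_one]
  set Ω := (Q : Set G).toFinite.toFinset.filter (fun g => g ∉ Subgroup.center G) with hΩ
  have hmemΩ : ∀ g, g ∈ Ω ↔ g ∈ Q ∧ g ∉ Subgroup.center G := fun g => by simp [hΩ]
  have hconjΩ : ∀ g (i : ℕ), g ∈ Ω → x ^ i * g * (x ^ i)⁻¹ ∈ Ω := by
    intro g i hg
    rw [hmemΩ] at hg ⊢
    refine ⟨hQn.conj_mem g hg.1 _, fun h => hg.2 ?_⟩
    have := (inferInstance : (Subgroup.center G).Normal).conj_mem _ h (x ^ i)⁻¹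
    simpa [mul_assoc] using this
  let r : Setoid G :=
    { r := fun g g' => ∃ y ∈ Subgroup.zpowers x, y * g * y⁻¹ = g'
      iseqv :=
        { refl := fun g => ⟨1, one_mem _, by simp⟩
          symm := fun {g g'} ⟨y, hy, h⟩ => ⟨y⁻¹, inv_mem hy, by rw [← h]; group⟩
          trans := fun {g g' g''} ⟨y, hy, h⟩ ⟨y', hy', h'⟩ =>
            ⟨y' * y, mul_mem hy' hy, by rw [← h', ← h]; group⟩ } }
  set R := Ω.filter (fun g => (Quotient.mk r g).out = g) with hR
  have hpow : ∀ y ∈ Subgroup.zpowers x, ∃ i < orderOf x, x ^ i = y := by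
    intro y hy
    obtain ⟨i, rfl⟩ := (mem_zpowers_iff_mem_range_orderOf.1 hy : _)
      |> fun h => Finset.mem_image.1 h |>.imp fun i h => h.2
    exact ⟨i % orderOf x, Nat.mod_lt _ (orderOf_pos x), pow_mod_orderOf x i⟩
  have hsplit : ∑ g ∈ Ω, w g • ρ g =
      ∑ z ∈ Finset.range (orderOf x) ×ˢ R, w z.2 • (ρ x ^ z.1 * ρ z.2 * ρ x⁻¹ ^ z.1) := by
    refine (Finset.sum_bij (fun z _ => x ^ z.1 * z.2 * (x ^ z.1)⁻¹) ?_ ?_ ?_ ?_).symm
    · intro z hz
      rw [Finset.mem_product, hR, Finset.mem_filter] at hz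
      exact hconjΩ _ _ hz.2.1
    · rintro ⟨i, g⟩ hz ⟨j, g'⟩ hz' he
      rw [Finset.mem_product, Finset.mem_range, hR, Finset.mem_filter] at hz hz'
      simp only at he hz hz'
      have hgg : g = g' := by
        rw [← hz.2.2, ← hz'.2.2]
        refine congrArg Quotient.out (Quotient.sound ⟨(x ^ j)⁻¹ * x ^ i, ?_, ?_⟩)
        · exact mul_mem (inv_mem (pow_mem (Subgroup.mem_zpowers x) j)) (pow_mem (Subgroup.mem_zpowers x) i)
        · calc (x ^ j)⁻¹ * x ^ i * g * ((x ^ j)⁻¹ * x ^ i)⁻¹
              = (x ^ j)⁻¹ * (x ^ i * g * (x ^ i)⁻¹) * x ^ j := by group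
            _ = g' := by rw [he]; group
      subst hgg
      have hy := hfree g ((hmemΩ g).1 hz.2.1).1 ((hmemΩ g).1 hz.2.1).2 ((x ^ j)⁻¹ * x ^ i)
        (mul_mem (inv_mem (pow_mem (Subgroup.mem_zpowers x) j)) (pow_mem (Subgroup.mem_zpowers x) i))
        (by
          calc (x ^ j)⁻¹ * x ^ i * g * ((x ^ j)⁻¹ * x ^ i)⁻¹
              = (x ^ j)⁻¹ * (x ^ i * g * (x ^ i)⁻¹) * x ^ j := by group
            _ = g := by rw [he]; group)
      rw [inv_mul_eq_one] at hy
      exact Prod.ext (pow_injOn_Iio_orderOf hz.1 hz'.1 hy.symm) rfl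
    · intro g hg
      obtain ⟨y, hy, hyg⟩ := (Quotient.exact (Quotient.out_eq (Quotient.mk r g)) :
        r (Quotient.mk r g).out g)
      obtain ⟨i, hi, rfl⟩ := hpow y hy
      refine ⟨(i, (Quotient.mk r g).out), Finset.mem_product.2 ⟨Finset.mem_range.2 hi, ?_⟩, hyg⟩
      rw [hR, Finset.mem_filter]
      refine ⟨?_, by rw [Quotient.out_eq]⟩
      obtain ⟨j, -, hj⟩ := hpow _ (inv_mem hy)
      have := hconjΩ g j hg
      rw [hj] at this
      generalize (Quotient.mk r g).out = o at hyg this ⊢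
      subst hyg
      convert this using 1
      group
    · intro z _
      rw [hw, map_mul, map_mul, map_pow, ← inv_pow, map_pow]
  obtain ⟨c', hc'⟩ : ∃ c' : K, ∑ g ∈ (Q : Set G).toFinite.toFinset.filter
      (fun g => g ∈ Subgroup.center G), w g • ρ g = c' • 1 := by
    refine exists_scalar ρ hirr _ fun k _ => ?_
    rw [Finset.sum_mul, Finset.mul_sum]
    refine Finset.sum_congr rfl fun g hg => ?_
    rw [smul_mul_assoc, mul_smul_comm, ← map_mul, ← map_mul,
      Subgroup.mem_center_iff.1 (Finset.mem_filter.1 hg).2 k]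
  refine ⟨c', ∑ g ∈ R, w g • ρ g, ?_⟩
  have hQsum : f = ∑ g ∈ (Q : Set G).toFinite.toFinset, w g • ρ g :=
    hfsum.trans (Finset.sum_subtype (p := fun g => g ∈ Q) _ (fun g => by simp) (fun g => w g • ρ g)).symm
  rw [← Finset.sum_filter_add_sum_filter_not _ (fun g => g ∈ Subgroup.center G), hc'] at hQsum
  rw [hQsum]
  congr 1
  rw [← hΩ, hsplit, orbTrace, Finset.sum_product]
  refine Finset.sum_congr rfl fun i _ => ?_
  rw [Finset.mul_sum, Finset.sum_mul]
  exact Finset.sum_congr rfl fun g _ => by rw [mul_smul_comm, smul_mul_assoc]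

omit [IsAlgClosed K] [FiniteDimensional K V] in
/-- The trace over a group of order `p ^ k` kills `v` as soon as every `n ^ i * h * n ^ j`,
`i + j = p ^ k - 1`, kills its translate. -/
theorem orbTrace_apply_eq_zero {p : ℕ} [Fact p.Prime] [CharP K p] {k : ℕ} {X Y : End K V}
    (hXY : X * Y = 1) (hYX : Y * X = 1) (h : End K V) (v : V)
    (hu : ∀ i j, i + j = p ^ k - 1 →
      ((X - 1) ^ i * h * (X - 1) ^ j) ((Y ^ (p ^ k - 1)) v) = 0) :
    orbTrace X Y (p ^ k) h v = 0 := by
  set L : End K (End K V) := LinearMap.mulLeft K X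
  set R : End K (End K V) := LinearMap.mulRight K Y
  set D : End K (End K V) := L * R with hD
  have hDapp : ∀ (i : ℕ) (f : End K V), (D ^ i) f = X ^ i * f * Y ^ i := by
    intro i f
    induction i with
    | zero => simp
    | succ i ih =>
      rw [pow_succ' D, Module.End.mul_apply, ih, hD, Module.End.mul_apply,
        LinearMap.mulRight_apply, LinearMap.mulLeft_apply, pow_succ' X, pow_succ Y]
      simp only [mul_assoc]
  have hpoly : ∑ i ∈ Finset.range (p ^ k), (Polynomial.X : K[X]) ^ i =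
      (Polynomial.X - 1) ^ (p ^ k - 1) := by
    have hne : (Polynomial.X - 1 : K[X]) ≠ 0 := Polynomial.X_sub_C_ne_zero 1
    refine mul_right_cancel₀ hne ?_
    rw [geom_sum_mul, ← pow_succ, Nat.sub_add_cancel (Nat.one_le_pow _ _ (Fact.out : p.Prime).pos),
      sub_pow_char_pow, one_pow]
  have hT : orbTrace X Y (p ^ k) h = ((D - 1) ^ (p ^ k - 1)) h := by
    have := congrArg (fun P => (Polynomial.aeval D P) h) hpoly
    simp only [map_sum, map_pow, map_sub, Polynomial.aeval_X, map_one, LinearMap.sum_apply] at this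
    rw [← this, orbTrace]
    exact Finset.sum_congr rfl fun i _ => (hDapp i h).symm
  have hDsub : D - 1 = R * (LinearMap.mulLeft K (X - 1) - LinearMap.mulRight K (X - 1)) := by
    refine LinearMap.ext fun f => ?_
    simp only [hD, LinearMap.sub_apply, Module.End.mul_apply, Module.End.one_apply, L, R,
      LinearMap.mulRight_apply, LinearMap.mulLeft_apply, sub_mul, mul_sub, one_mul, mul_one]
    rw [mul_assoc f X Y, hXY, mul_one, ← mul_assoc]
    abel
  have hcomm : Commute R (LinearMap.mulLeft K (X - 1) - LinearMap.mulRight K (X - 1)) := by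
    refine LinearMap.ext fun f => ?_
    simp only [LinearMap.sub_apply, Module.End.mul_apply, R, LinearMap.mulRight_apply,
      LinearMap.mulLeft_apply, sub_mul, mul_sub, one_mul, mul_one]
    rw [mul_assoc f X Y, hXY, mul_assoc f Y X, hYX, ← mul_assoc]
  have hR : ∀ (i : ℕ) (f : End K V), (R ^ i) f = f * Y ^ i := by
    intro i f
    induction i with
    | zero => simp
    | succ i ih =>
      rw [pow_succ' R, Module.End.mul_apply, ih, LinearMap.mulRight_apply, pow_succ Y, mul_assoc]
  rw [hT, hDsub, hcomm.mul_pow, Module.End.mul_apply, hR, Module.End.mul_apply,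
    sub_eq_add_neg (LinearMap.mulLeft K (X - 1)),
    (Commute.neg_right (LinearMap.commute_mulLeft_right (R := K) (X - 1) (X - 1))).add_pow,
    LinearMap.sum_apply, LinearMap.sum_apply]
  refine Finset.sum_eq_zero fun m hm => ?_
  rw [Finset.mem_range] at hm
  have h1 := hu m (p ^ k - 1 - m) (by omega)
  rcases neg_one_pow_eq_or (End K (End K V)) (p ^ k - 1 - m) with h' | h' <;>
    simp [neg_pow (LinearMap.mulRight K (X - 1)), h', Module.End.mul_apply,
      LinearMap.pow_mulLeft, LinearMap.pow_mulRight, mul_assoc, ← Module.End.mul_apply,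
      ← mul_assoc ((X - 1) ^ m)] <;>
    simp [Module.End.mul_apply] at h1 ⊢ <;> simp [h1]

end CfsgLib.RepCritical
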